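-- Team project OFM (S5978): package [DERC] (helper27).
import Mathlib
import Cfsg.Agent.Lib.Helper74.OFM.Defs
import Cfsg.Agent.Lib.Helper27.OHyp.BlkFinal
import Cfsg.Agent.Lib.Helper27.OHyp.BlkBasic
import Cfsg.Agent.Lib.Helper97.OHyp.Split
import Cfsg.Agent.Lib.Helper97.OHyp.OddOmega
import Cfsg.Agent.Lib.Helper87.OHyp.Perp

set_option autoImplicit false
set_option linter.unusedSectionVars false
open Matrix

namespace Cfsg.Agent.Lib.Helper27.OFM

open Cfsg.Agent.Lib.Helper23.OHyp Cfsg.Agent.Lib.Helper74.OFM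

universe u

/-- [DERC] -/
theorem pkgDerC : PkgDerC.{u} := by
  intro F _ _ hodd ι _ _ Q hQ r hr hr2 hrq hrΩ hc4
  classical
  have h2 : (2 : F) ≠ 0 := by
    intro h0
    have hc : ringChar F = 2 := CharP.ringChar_of_prime_eq_zero Nat.prime_two h0
    have := (FiniteField.even_card_iff_char_two (F := F)).mp hc
    rcases hodd with ⟨k, hk⟩
    omega
  have hrF : (r : F) ≠ 0 := by
    intro h0
    have hcop : Nat.Coprime r (Fintype.card F) := (Nat.Prime.coprime_iff_not_dvd hr).mpr hrq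
    obtain ⟨a, b, hab⟩ := Nat.isCoprime_iff_coprime.mpr hcop
    have h1 := congrArg (fun n : ℤ => (n : F)) hab
    simp only [Int.cast_add, Int.cast_mul, Int.cast_natCast, Int.cast_one] at h1
    rw [h0, FiniteField.cast_card_eq_zero, mul_zero, mul_zero, add_zero] at h1
    exact zero_ne_one h1
  have hB := hQ.polar_bilinear
  -- Cauchy
  have : Fact r.Prime := ⟨hr⟩
  obtain ⟨y', hy'⟩ := exists_prime_orderOf_dvd_card' (G := ↥(Cfsg.Geo.omegaGL Q)) r hrΩ
  obtain ⟨y, hyΩ, hyo⟩ : ∃ y : GL ι F, y ∈ Cfsg.Geo.omegaGL Q ∧ orderOf y = r :=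
    ⟨y'.1, y'.2, by rw [Subgroup.orderOf_coe]; exact hy'⟩
  have hyiso : ∀ v, Q ((y : Matrix ι ι F) *ᵥ v) = Q v := by
    obtain ⟨y₀, -, rfl⟩ := hyΩ
    exact fun v => y₀.2 v v
  have hypow : (y : Matrix ι ι F) ^ r = 1 := by
    rw [← Units.val_pow_eq_pow_val, ← hyo, pow_orderOf_eq_one]; rfl
  have hS : Std Q r (y : Matrix ι ι F) :=
    { nondeg := hQ, two := h2, prime := hr, ne_two := hr2, ndvd := hrq, ne := hrF,
      pow := hypow, isom := hyiso }
  obtain ⟨-, hNdN, -, -, hInvN, -⟩ := Cfsg.Agent.Lib.Helper97.OHyp.pkgSplit F ι Q r _ hS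
  have hN0 : movSp (y : Matrix ι ι F) ≠ ⊥ := by
    intro h0
    have h1 : Matrix.toLin' (y : Matrix ι ι F) - 1 = 0 := by
      unfold movSp at h0
      exact LinearMap.range_eq_bot.mp h0
    have h3 : (y : Matrix ι ι F) = 1 := by
      apply Matrix.toLin'.injective
      rw [Matrix.toLin'_one]
      exact sub_eq_zero.mp h1
    have h4 : y = 1 := Units.ext h3
    rw [h4, orderOf_one] at hyo
    exact hr.one_lt.ne hyo
  obtain ⟨D, hDN, hDinv, hDnd, hDdim, -⟩ :=
    Cfsg.Agent.Lib.Helper27.OHyp.pkgBlk F ι Q r _ hS _ le_rfl hInvN hNdN hN0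
  have hTopNd : Nd Q (⊤ : Submodule F (ι → F)) := by
    intro w _ hw0
    obtain ⟨⟨a, ha⟩, ⟨b, hb⟩⟩ := hQ.nondegenerate w hw0
    exact ⟨⟨a, Submodule.mem_top, ha⟩, ⟨b, Submodule.mem_top, hb⟩⟩
  obtain ⟨D', -, hD'inv, -, hperp, hsup, -⟩ :=
    Cfsg.Agent.Lib.Helper87.OHyp.pkgPerp F ι Q hQ _ hyiso (Matrix.isUnits_det_units y) ⊤ D le_top
      (fun _ _ => Submodule.mem_top) hDinv hTopNd hDnd
  have hcompl : IsCompl D D' := by
    rw [isCompl_iff]
    refine ⟨?_, codisjoint_iff.mpr hsup⟩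
    rw [disjoint_iff, eq_bot_iff]
    intro v hv
    rw [Submodule.mem_bot]
    by_contra hv0
    obtain ⟨⟨u, hu, hne⟩, -⟩ := hDnd v hv.1 hv0
    exact hne (hperp u hu v hv.2)
  have hdec : ∀ v : ι → F, ∃ d ∈ D, ∃ d' ∈ D', d + d' = v := by
    intro v
    have : v ∈ D ⊔ D' := by rw [hsup]; trivial
    exact Submodule.mem_sup.mp this
  have hyD : ∀ d ∈ D, (y : Matrix ι ι F) *ᵥ d ∈ D :=
    fun d hd => Cfsg.Agent.Lib.Helper27.OHyp.inv_mulVec_blk hDinv hd
  -- the element: `y` on `D`, `1` on `D'`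
  obtain ⟨X, hX⟩ : ∃ X : (ι → F) →ₗ[F] (ι → F), ∀ d ∈ D, ∀ d' ∈ D',
      X (d + d') = (y : Matrix ι ι F) *ᵥ d + d' := by
    refine ⟨LinearMap.ofIsCompl hcompl (Matrix.toLin' (y : Matrix ι ι F) ∘ₗ D.subtype)
      D'.subtype, ?_⟩
    intro d hd d' hd'
    rw [map_add]
    have e1 := LinearMap.ofIsCompl_apply_left hcompl
      (φ := Matrix.toLin' (y : Matrix ι ι F) ∘ₗ D.subtype) (ψ := D'.subtype) ⟨d, hd⟩
    have e2 := LinearMap.ofIsCompl_apply_right hcompl
      (φ := Matrix.toLin' (y : Matrix ι ι F) ∘ₗ D.subtype) (ψ := D'.subtype) ⟨d', hd'⟩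
    rw [e1, e2]
    simp [Matrix.toLin'_apply]
  obtain ⟨xm, hxm⟩ : ∃ xm : Matrix ι ι F, ∀ v, xm *ᵥ v = X v :=
    ⟨LinearMap.toMatrix' X, fun v => by rw [← Matrix.toLin'_apply, Matrix.toLin'_toMatrix']⟩
  have hxmv : ∀ d ∈ D, ∀ d' ∈ D', xm *ᵥ (d + d') = (y : Matrix ι ι F) *ᵥ d + d' := by
    intro d hd d' hd'
    rw [hxm, hX d hd d' hd']
  -- isometry
  have hpolar : ∀ a b : ι → F, Q (a + b) = Q a + Q b + QuadraticMap.polar Q a b := by
    intro a b
    unfold QuadraticMap.polar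
    ring
  have hxiso : ∀ v, Q (xm *ᵥ v) = Q v := by
    intro v
    obtain ⟨d, hd, d', hd', rfl⟩ := hdec v
    rw [hxmv d hd d' hd', hpolar, hpolar, hyiso, hperp _ (hyD d hd) d' hd', hperp d hd d' hd']
  -- powers
  have hpow : ∀ k : ℕ, ∀ d ∈ D, ∀ d' ∈ D',
      (xm ^ k) *ᵥ (d + d') = ((y : Matrix ι ι F) ^ k) *ᵥ d + d' := by
    intro k
    induction k with
    | zero => intro d _ d' _; simp
    | succ k ih =>
      intro d hd d' hd'
      rw [pow_succ, ← Matrix.mulVec_mulVec, hxmv d hd d' hd', ih _ (hyD d hd) d' hd',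
        Matrix.mulVec_mulVec, ← pow_succ]
  have hxpow : xm ^ r = 1 := by
    apply Matrix.toLin'.injective
    apply LinearMap.ext
    intro v
    obtain ⟨d, hd, d', hd', rfl⟩ := hdec v
    rw [Matrix.toLin'_apply, hpow r d hd d' hd', hypow, Matrix.one_mulVec, Matrix.toLin'_one,
      LinearMap.id_apply]
  have hrpos : 0 < r := hr.pos
  have hx1 : xm * xm ^ (r - 1) = 1 := by
    rw [← pow_succ', Nat.sub_add_cancel hrpos, hxpow]
  have hx2 : xm ^ (r - 1) * xm = 1 := by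
    rw [← pow_succ, Nat.sub_add_cancel hrpos, hxpow]
  obtain ⟨x, hxv⟩ : ∃ x : GL ι F, (x : Matrix ι ι F) = xm := ⟨⟨xm, xm ^ (r - 1), hx1, hx2⟩, rfl⟩
  have hxmem : x ∈ Cfsg.isometryGroup F Q := by
    intro u _
    show Q ((x : Matrix ι ι F) *ᵥ u) = Q u
    rw [hxv]; exact hxiso u
  have hxr : x ^ r = 1 := by
    apply Units.ext
    rw [Units.val_pow_eq_pow_val, hxv, hxpow]; rfl
  have hxodd : Odd (orderOf x) := by
    rcases hr.eq_one_or_self_of_dvd _ (orderOf_dvd_of_pow_eq_one hxr) with h | h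
    · rw [h]; exact odd_one
    · rw [h]; exact hr.odd_of_ne_two hr2
  have hxΩ : x ∈ Cfsg.Geo.omegaGL Q :=
    Cfsg.Agent.Lib.Helper97.OHyp.pkgOddOmega F ι Q hQ h2 x hxmem hxodd
  -- the rank of `x - 1`
  have hNoFix := Cfsg.Agent.Lib.Helper27.OHyp.pkgNoFix F ι Q r _ hS
  have hDm : ∀ d ∈ D, (Matrix.toLin' (y : Matrix ι ι F) - 1) d ∈ D := by
    intro d hd
    rw [LinearMap.sub_apply, Matrix.toLin'_apply, Module.End.one_apply]
    exact D.sub_mem (hyD d hd) hd
  have hsurj : Function.Surjective ((Matrix.toLin' (y : Matrix ι ι F) - 1).restrict hDm) := by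
    apply LinearMap.injective_iff_surjective.mp
    rw [← LinearMap.ker_eq_bot, LinearMap.ker_eq_bot']
    intro d hd
    have h0 : (Matrix.toLin' (y : Matrix ι ι F) - 1) (d : ι → F) = 0 := by
      have := congrArg Subtype.val hd
      exact this
    rw [LinearMap.sub_apply, Matrix.toLin'_apply, Module.End.one_apply, sub_eq_zero] at h0
    exact Subtype.ext (hNoFix _ (hDN d.2) h0)
  have hrange : LinearMap.range (xm - 1).mulVecLin = D := by
    apply le_antisymm
    · rintro _ ⟨v, rfl⟩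
      obtain ⟨d, hd, d', hd', rfl⟩ := hdec v
      rw [Matrix.mulVecLin_apply, Matrix.sub_mulVec, Matrix.one_mulVec, hxmv d hd d' hd']
      have : (y : Matrix ι ι F) *ᵥ d + d' - (d + d') = (y : Matrix ι ι F) *ᵥ d - d := by abel
      rw [this]
      exact D.sub_mem (hyD d hd) hd
    · intro d₀ hd₀
      obtain ⟨d, hd⟩ := hsurj ⟨d₀, hd₀⟩
      refine ⟨(d : ι → F), ?_⟩
      have h1 := hxmv d d.2 0 D'.zero_mem
      rw [add_zero, add_zero] at h1
      rw [Matrix.mulVecLin_apply, Matrix.sub_mulVec, Matrix.one_mulVec, h1]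
      have h3 := congrArg Subtype.val hd
      rw [LinearMap.coe_restrict_apply, LinearMap.sub_apply, Matrix.toLin'_apply,
        Module.End.one_apply] at h3
      exact h3
  have hrank : (xm - 1).rank = cc (Fintype.card F) r := by
    unfold Matrix.rank
    rw [hrange, hDdim]
  have hnot4 : ¬ 4 ∣ (xm - 1).rank := by
    rw [hrank]
    intro h4
    omega
  refine ⟨x, hxΩ, by rw [hxv]; exact hxpow, ?_, by rw [hxv]; exact hnot4⟩
  -- not scalar
  intro z hz
  rw [hxv] at hz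
  -- a vector with `Q v ≠ 0`
  have hD0 : D ≠ ⊥ := by
    intro h0
    rw [h0, finrank_bot] at hDdim
    omega
  obtain ⟨d, hd, hd0⟩ := Submodule.exists_mem_ne_zero_of_ne_bot hD0
  obtain ⟨⟨u, hu, hne⟩, -⟩ := hDnd d hd hd0
  have hex : ∃ v : ι → F, Q v ≠ 0 := by
    by_contra hcon
    simp only [not_exists, not_not] at hcon
    apply hne
    unfold QuadraticMap.polar
    rw [hcon, hcon, hcon]; ring
  obtain ⟨v, hv⟩ := hex
  have hv0 : v ≠ 0 := by
    intro h0
    apply hv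
    have := hQ.smul 0 v
    rw [zero_smul] at this
    rw [h0, this]; ring
  have hz2 : z ^ 2 = 1 := by
    have h1 := hxiso v
    rw [hz, Matrix.smul_mulVec, Matrix.one_mulVec, hQ.smul] at h1
    have h3 : (z ^ 2 - 1) * Q v = 0 := by linear_combination h1
    rcases mul_eq_zero.mp h3 with h4 | h4
    · linear_combination h4
    · exact absurd h4 hv
  have hzr : z ^ r = 1 := by
    have h1 : (xm ^ r) *ᵥ v = v := by rw [hxpow, Matrix.one_mulVec]
    rw [hz, smul_pow, one_pow, Matrix.smul_mulVec, Matrix.one_mulVec] at h1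
    have h3 : (z ^ r - 1) • v = 0 := by rw [sub_smul, one_smul, h1, sub_self]
    rcases smul_eq_zero.mp h3 with h4 | h4
    · exact sub_eq_zero.mp h4
    · exact absurd h4 hv0
  have hz1 : z = 1 := by
    obtain ⟨m, hm⟩ := hr.odd_of_ne_two hr2
    have : z ^ r = z := by
      rw [hm, pow_succ, pow_mul, hz2, one_pow, one_mul]
    rw [this] at hzr
    exact hzr
  apply hnot4
  rw [hz, hz1, one_smul, sub_self, Matrix.rank_zero]
  exact dvd_zero 4

end Cfsg.Agent.Lib.Helper27.OFM
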